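import Cfsg.Agent.RealZJ.Glauberman
import Cfsg.Agent.ZJ.Glauberman

/-!
Automorphisms of `2`-power order induced on `p`-subgroups, and inverted elements in Sylow normalizers of `Z(J)`.
-/

set_option autoImplicit false
set_option linter.style.haveILetI false

namespace CfsgLib.RealZJ

open CfsgLib

variable {G : Type*} [Group G] {p : ℕ}

/-- An element of `2`-power order induces a nontrivial automorphism on some `p`-subgroup. -/
def HasReal (p : ℕ) (G : Type*) [Group G] : Prop :=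
  ∃ Q : Subgroup G, IsPGroup p Q ∧ ∃ t ∈ Subgroup.normalizer (Q : Set G),
    (∃ k : ℕ, t ^ 2 ^ k = 1) ∧ t ∉ Subgroup.centralizer (Q : Set G)

/-- Some nontrivial element of `P` is inverted in the normalizer of `Z(J(P))`. -/
def Inverts (p : ℕ) (P : Subgroup G) : Prop :=
  ∃ y ∈ P, y ≠ 1 ∧ ∃ n ∈ Subgroup.normalizer (ZJ.W p false P : Set G), n * y * n⁻¹ = y⁻¹

theorem exists_odd_pow [Finite G] (a : G) : ∃ m : ℕ, Odd m ∧ ∃ k : ℕ, (a ^ m) ^ 2 ^ k = 1 := by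
  obtain ⟨k, m, hm, hkm⟩ := Nat.exists_eq_two_pow_mul_odd (orderOf_pos a).ne'
  exact ⟨m, hm, k, by rw [← pow_mul, mul_comm, ← hkm, pow_orderOf_eq_one]⟩

theorem eq_one_of_two_power {g : G} {k m : ℕ} (hk : g ^ 2 ^ k = 1) (hm : Odd m) (h : g ^ m = 1) :
    g = 1 :=
  orderOf_eq_one_iff.1 (Nat.eq_one_of_dvd_coprimes (hm.coprime_two_left.pow_left k)
    (orderOf_dvd_of_pow_eq_one hk) (orderOf_dvd_of_pow_eq_one h))

theorem eq_one_of_pow_eq [hp : Fact p.Prime] {Q : Subgroup G} (hQ : IsPGroup p Q) (hp2 : p ≠ 2) {c : G}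
    (hc : c ∈ Q) {k : ℕ} (h : c ^ 2 ^ k = 1) : c = 1 := by
  obtain ⟨j, hj⟩ := hQ ⟨c, hc⟩
  exact eq_one_of_two_power h ((hp.out.odd_of_ne_two hp2).pow (n := j)) (congrArg Subtype.val hj)

theorem zpowers_isPGroup {Q : Subgroup G} (hQ : IsPGroup p Q) {y : G} (hy : y ∈ Q) :
    IsPGroup p (Subgroup.zpowers y) :=
  hQ.to_le (Subgroup.zpowers_le.2 hy)

theorem mem_normalizer_zpowers_of_inv [Finite G] {n y : G} (h : n * y * n⁻¹ = y⁻¹) :
    n ∈ Subgroup.normalizer (Subgroup.zpowers y : Set G) := by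
  refine Subgroup.mem_normalizer_fintype fun x hx => ?_
  obtain ⟨i, rfl⟩ := Subgroup.mem_zpowers_iff.1 hx
  show n * y ^ i * n⁻¹ ∈ Subgroup.zpowers y
  rw [← conj_zpow, h]
  exact Subgroup.zpow_mem _ (Subgroup.inv_mem _ (Subgroup.mem_zpowers y)) i

theorem conj_pow_odd {n y : G} (h : n * y * n⁻¹ = y⁻¹) {m : ℕ} (hm : Odd m) :
    n ^ m * y * (n ^ m)⁻¹ = y⁻¹ := by
  obtain ⟨j, rfl⟩ := hm
  induction j with
  | zero => simpa using h
  | succ j ih =>
    have h' : n * y⁻¹ * n⁻¹ = y := by rw [← conj_inv, h, inv_inv]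
    calc n ^ (2 * (j + 1) + 1) * y * (n ^ (2 * (j + 1) + 1))⁻¹
        = n * (n * (n ^ (2 * j + 1) * y * (n ^ (2 * j + 1))⁻¹) * n⁻¹) * n⁻¹ := by group
      _ = y⁻¹ := by rw [ih, h', h]

theorem hasReal_of_inverted [Finite G] [hp : Fact p.Prime] (hp2 : p ≠ 2) {Q : Subgroup G} (hQ : IsPGroup p Q)
    {y n : G} (hy : y ∈ Q) (hy1 : y ≠ 1) (h : n * y * n⁻¹ = y⁻¹) : HasReal p G := by
  obtain ⟨m, hm, hk⟩ := exists_odd_pow n
  refine ⟨_, zpowers_isPGroup hQ hy, n ^ m, mem_normalizer_zpowers_of_inv (conj_pow_odd h hm), hk, fun hc => hy1 ?_⟩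
  have h1 := Subgroup.mem_centralizer_iff.1 hc y (Subgroup.mem_zpowers y)
  have h2 := conj_pow_odd h hm
  rw [← h1, mul_inv_cancel_right] at h2
  refine eq_one_of_pow_eq hQ hp2 hy (k := 1) ?_
  rw [pow_one, pow_two, ← inv_eq_iff_mul_eq_one.1 h2.symm]

theorem exists_inverted_of_hasReal (h : HasReal p G) :
    ∃ Q : Subgroup G, IsPGroup p Q ∧ ∃ y ∈ Q, y ≠ 1 ∧ ∃ t : G, t * y * t⁻¹ = y⁻¹ := by
  obtain ⟨Q, hQ, t, ht, ⟨k, hk⟩, hc⟩ := h
  refine ⟨Q, hQ, ?_⟩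
  induction k generalizing t with
  | zero => exact absurd (by rw [pow_zero, pow_one] at hk; rw [hk]; exact one_mem _) hc
  | succ k ih =>
    by_cases h2 : t ^ 2 ∈ Subgroup.centralizer (Q : Set G)
    swap
    · exact ih (t ^ 2) (Subgroup.pow_mem _ ht 2) h2 (by rw [← pow_mul, ← pow_succ', hk])
    obtain ⟨q, hq, hne⟩ : ∃ q ∈ Q, t * q * t⁻¹ ≠ q := by
      by_contra hcon
      push Not at hcon
      exact hc (Subgroup.mem_centralizer_iff.2 fun q hq => (mul_inv_eq_iff_eq_mul.1 (hcon q hq)).symm)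
    have hq' : t * q * t⁻¹ ∈ Q := (Subgroup.mem_normalizer_iff.1 ht q).1 hq
    refine ⟨q⁻¹ * (t * q * t⁻¹), Q.mul_mem (Q.inv_mem hq) hq', fun e => hne ?_, t, ?_⟩
    · exact (inv_mul_eq_one.1 e).symm
    · have e := Subgroup.mem_centralizer_iff.1 h2 q hq
      calc t * (q⁻¹ * (t * q * t⁻¹)) * t⁻¹ = (t * q * t⁻¹)⁻¹ * (t ^ 2 * q * (t ^ 2)⁻¹) := by group
        _ = (q⁻¹ * (t * q * t⁻¹))⁻¹ := by rw [← e]; group

theorem hasReal_of_injective {H : Type*} [Group H] [Finite G] [Fact p.Prime] (hp2 : p ≠ 2) (f : H →* G)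
    (hf : Function.Injective f) (h : HasReal p H) : HasReal p G := by
  obtain ⟨Q, hQ, y, hy, hy1, t, ht⟩ := exists_inverted_of_hasReal h
  refine hasReal_of_inverted hp2 (hQ.map f) ⟨y, hy, rfl⟩ (fun e => hy1 (hf (e.trans (map_one f).symm)))
    (n := f t) ?_
  rw [← map_inv f t, ← map_mul, ← map_mul, ht, map_inv]

theorem hasReal_subgroup [Finite G] [Fact p.Prime] (hp2 : p ≠ 2) {M Q : Subgroup G} (hQ : IsPGroup p Q)
    {y n : G} (hy : y ∈ Q) (hy1 : y ≠ 1) (hyM : y ∈ M) (hnM : n ∈ M) (h : n * y * n⁻¹ = y⁻¹) :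
    HasReal p M :=
  hasReal_of_inverted hp2 (hQ.comap_of_injective M.subtype M.subtype_injective) (y := (⟨y, hyM⟩ : M)) hy
    (fun e => hy1 (congrArg Subtype.val e)) (n := (⟨n, hnM⟩ : M)) (Subtype.ext h)

theorem hasReal_of_surjective {H : Type*} [Group H] [Finite G] [Finite H] [hp : Fact p.Prime] (hp2 : p ≠ 2)
    (f : G →* H) (hf : Function.Surjective f) (h : HasReal p H) : HasReal p G := by
  obtain ⟨Q, hQ, y, hy, hy1, t, ht⟩ := exists_inverted_of_hasReal h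
  set Z := Subgroup.zpowers y
  set L := Z.comap f
  haveI hn : (L.subgroupOf ((Subgroup.normalizer (Z : Set H)).comap f)).Normal := by
    refine (Subgroup.normal_subgroupOf_iff_le_normalizer (Subgroup.comap_mono Subgroup.le_normalizer)).2 ?_
    exact Subgroup.le_normalizer_comap f
  obtain ⟨n, rfl⟩ := hf t
  set N := (Subgroup.normalizer (Z : Set H)).comap f
  have hnN : n ∈ N := mem_normalizer_zpowers_of_inv ht
  obtain ⟨T⟩ : Nonempty (Sylow p ↥(L.subgroupOf N)) := inferInstance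
  have hfr := Sylow.normalizer_sup_eq_top T
  obtain ⟨a, ha, l, hl, hal⟩ := Subgroup.mem_sup_of_normal_right.1 (hfr.ge (Subgroup.mem_top (⟨n, hnN⟩ : N)))
  have hfa : f a * y * (f a)⁻¹ = y⁻¹ := by
    have hl' : f l ∈ Z := hl
    obtain ⟨i, hi⟩ := Subgroup.mem_zpowers_iff.1 hl'
    have e : f n = f a * y ^ i := by rw [hi, ← map_mul]; exact (congrArg (fun w : N => f w) hal).symm
    rw [← ht, e]
    group
  set U := ((T : Subgroup ↥(L.subgroupOf N)).map (L.subgroupOf N).subtype).map N.subtype with hU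
  have hUp : IsPGroup p U := (T.2.map _).map _
  obtain ⟨m, hm, k, hk⟩ := exists_odd_pow (a : G)
  have haU : (a : G) ∈ Subgroup.normalizer (U : Set G) := Subgroup.le_normalizer_map N.subtype ⟨a, ha, rfl⟩
  refine ⟨U, hUp, (a : G) ^ m, Subgroup.pow_mem _ haU m, ⟨k, hk⟩, fun hc => hy1 ?_⟩
  -- `U` maps onto `Z`
  have hUZ : U.map f = Z := by
    set ρ : ↥(L.subgroupOf N) →* Z :=
      (f.comp (N.subtype.comp (L.subgroupOf N).subtype)).codRestrict Z fun w => w.2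
    have hρ : Function.Surjective ρ := by
      rintro ⟨z, hz⟩
      obtain ⟨g, rfl⟩ := hf z
      have hgN : g ∈ N := Subgroup.le_normalizer (H := Z) hz
      exact ⟨⟨⟨g, hgN⟩, hz⟩, rfl⟩
    have h3 : (T.mapSurjective hρ : Subgroup Z) = ⊤ :=
      (T.mapSurjective hρ).3 ((zpowers_isPGroup hQ hy).to_subgroup ⊤) le_top |>.symm
    rw [Sylow.coe_mapSurjective] at h3
    refine le_antisymm ?_ fun z hz => ?_
    · rintro _ ⟨_, ⟨_, ⟨w, -, rfl⟩, rfl⟩, rfl⟩
      exact w.2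
    · obtain ⟨w, hw, hwe⟩ := h3.ge (Subgroup.mem_top (⟨z, hz⟩ : Z))
      exact ⟨_, ⟨_, ⟨w, hw, rfl⟩, rfl⟩, congrArg Subtype.val hwe⟩
  obtain ⟨u, hu, huy⟩ := hUZ.ge (Subgroup.mem_zpowers y)
  have h4 := conj_pow_odd hfa hm
  rw [← map_pow, ← huy, ← map_inv, ← map_mul, ← map_mul, ← Subgroup.mem_centralizer_iff.1 hc u hu,
    mul_inv_cancel_right, huy] at h4
  refine eq_one_of_pow_eq hQ hp2 hy (k := 1) ?_
  rw [pow_one, pow_two, ← inv_eq_iff_mul_eq_one.1 h4.symm]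

theorem inverts_map {H : Type*} [Group H] {P : Subgroup G} (f : G →* H) (hf : Function.Injective f)
    (h : Inverts p P) : Inverts p (P.map f) := by
  obtain ⟨y, hy, hy1, n, hn, hny⟩ := h
  refine ⟨f y, ⟨y, hy, rfl⟩, fun e => hy1 (hf (e.trans (map_one f).symm)), f n, ?_, ?_⟩
  · rw [ZJ.W_map f fun x _ hx => hf (hx.trans (map_one f).symm)]
    exact Subgroup.le_normalizer_map f ⟨n, hn, rfl⟩
  · rw [← map_inv f n, ← map_mul, ← map_mul, hny, map_inv]

theorem inverts_all [Finite G] [Fact p.Prime] {S : Sylow p G} (h : Inverts p (S : Subgroup G))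
    (S' : Sylow p G) : Inverts p (S' : Subgroup G) := by
  obtain ⟨g, rfl⟩ := MulAction.exists_smul_eq G S S'
  rw [Sylow.coe_subgroup_smul]
  exact inverts_map (MulAut.conj g).toMonoidHom (MulAut.conj g).injective h

theorem hasReal_normalizer_W [Finite G] [Fact p.Prime] (hp2 : p ≠ 2) {P : Subgroup G} (hP : IsPGroup p P)
    (h : Inverts p P) : HasReal p (Subgroup.normalizer (ZJ.W p false P : Set G)) := by
  obtain ⟨y, hy, hy1, n, hn, hny⟩ := h
  exact hasReal_subgroup hp2 hP hy hy1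
    (ZJ.normalizer_le_normalizer_W P (Subgroup.le_normalizer hy)) hn hny

end CfsgLib.RealZJ
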