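import Cfsg.Agent.RealZJ.Basic

/-!
If an element of `2`-power order acts nontrivially on some `p`-subgroup (`p` odd), a nontrivial element of a Sylow
`p`-subgroup `S` is inverted in the normalizer of `Z(J(S))`.
-/

set_option autoImplicit false
set_option linter.style.haveILetI false
set_option maxHeartbeats 800000

universe u

namespace CfsgLib.RealZJ

open CfsgLib
open scoped commutatorElement

variable {p : ℕ} [hp : Fact p.Prime]

/-- The induction hypothesis: the theorem below order `n`. -/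
def Below (p : ℕ) (n : ℕ) : Prop :=
  ∀ (H : Type u) [Group H] [Finite H], Nat.card H < n → HasReal p H →
    ∀ S : Sylow p H, Inverts p (S : Subgroup H)

variable {G : Type u} [Group G] [Finite G]

theorem inverts_sylow_of_subgroup (hIH : Below.{u} p (Nat.card G)) {M : Subgroup G} (hM : M ≠ ⊤)
    (h : HasReal p M) (S : Sylow p G) (hS : (S : Subgroup G) ≤ M) : Inverts p (S : Subgroup G) := by
  have hlt : Nat.card M < Nat.card G :=
    lt_of_not_ge fun hge => hM (Subgroup.eq_top_of_le_card _ hge)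
  have h1 := inverts_map M.subtype M.subtype_injective (hIH M hlt h (S.subtype hS))
  rwa [Sylow.coe_subtype, Subgroup.map_subgroupOf_eq_of_le hS] at h1

theorem card_maxGood_le {el : Bool} {S S' : Sylow p G} {A : Subgroup G}
    (hA : A ∈ ZJ.maxGood p el (S : Subgroup G)) (hAS : A ≤ (S' : Subgroup G)) :
    A ∈ ZJ.maxGood p el (S' : Subgroup G) := by
  obtain ⟨g, rfl⟩ := MulAction.exists_smul_eq G S S'
  refine ⟨hAS, hA.2.1, fun B hB hBg => ?_⟩
  have hB' : B.map (MulAut.conj g⁻¹).toMonoidHom ≤ (S : Subgroup G) := by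
    rw [Sylow.coe_subgroup_smul] at hB
    rintro _ ⟨b, hb, rfl⟩
    obtain ⟨s, hs, rfl⟩ := hB hb
    simp [mul_assoc]
    exact hs
  have h1 := hA.2.2 _ hB' (ZJ.good_map _ hBg)
  rwa [Subgroup.card_map_of_injective (MulAut.conj g⁻¹).injective] at h1

/-- The step: a group with a counterexample satisfies contradictory conditions. -/
theorem inverts_step (hp2 : p ≠ 2) (hIH : Below.{u} p (Nat.card G)) (hreal : HasReal p G) :
    ∀ S : Sylow p G, Inverts p (S : Subgroup G) := by
  classical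
  by_contra hcon0
  have hcon : ∀ S : Sylow p G, ¬ Inverts p (S : Subgroup G) := fun S h => hcon0 (inverts_all h)
  -- proper overgroups of Sylow subgroups
  have hM : ∀ (M : Subgroup G) (S : Sylow p G), (S : Subgroup G) ≤ M → M ≠ ⊤ → ¬ HasReal p M :=
    fun M S hS hne h => hcon S (inverts_sylow_of_subgroup hIH hne h S hS)
  obtain ⟨Q, hQ, y, hy, hy1, t, ht⟩ := exists_inverted_of_hasReal hreal
  -- `W(S)` is never normal
  have hW : ∀ S : Sylow p G, ¬ (ZJ.W p false (S : Subgroup G)).Normal := by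
    intro S hn
    obtain ⟨S', hS'⟩ := hQ.exists_le_sylow
    refine hcon S' ⟨y, hS' hy, hy1, t, ?_, ht⟩
    obtain ⟨g, rfl⟩ := MulAction.exists_smul_eq G S S'
    have h1 := ZJ.W_map (p := p) (el := false) (MulAut.conj g).toMonoidHom (S := (S : Subgroup G))
      (fun x _ hx => (MulAut.conj g).injective (hx.trans (map_one (MulAut.conj g)).symm))
    have h2 : (ZJ.W p false (S : Subgroup G)).map (MulAut.conj g).toMonoidHom =
        ZJ.W p false (S : Subgroup G) :=
      Subgroup.mem_normalizer_iff_map_conj_eq.1 ((Subgroup.normalizer_eq_top (H := ZJ.W p false (S : Subgroup G))).ge (Subgroup.mem_top g))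
    have h3 : (↑(g • S) : Subgroup G) = (S : Subgroup G).map (MulAut.conj g).toMonoidHom :=
      Sylow.coe_subgroup_smul
    rw [h3, h1, h2, Subgroup.normalizer_eq_top]
    exact Subgroup.mem_top t
  -- climbing
  have climb : ∀ P : Subgroup G, IsPGroup p P → Inverts p P →
      ∃ P' : Subgroup G, IsPGroup p P' ∧ P ≤ P' ∧ Inverts p P' ∧ (ZJ.W p false P').Normal := by
    intro P hP hinv
    obtain ⟨P', ⟨hP', hle, hinv'⟩, hmax⟩ := Set.exists_max_image
      {R : Subgroup G | IsPGroup p R ∧ P ≤ R ∧ Inverts p R} (fun R => Nat.card R) (Set.toFinite _)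
      ⟨P, hP, le_rfl, hinv⟩
    refine ⟨P', hP', hle, hinv', ?_⟩
    by_contra hn
    set H := Subgroup.normalizer (ZJ.W p false P' : Set G) with hH
    have hne : H ≠ ⊤ := fun h => hn (Subgroup.normalizer_eq_top_iff.1 h)
    have hNP : Subgroup.normalizer (P' : Set G) ≤ H := ZJ.normalizer_le_normalizer_W P'
    have hP'H : P' ≤ H := Subgroup.le_normalizer.trans hNP
    obtain ⟨T, hT⟩ := (hP'.comap_of_injective H.subtype H.subtype_injective).exists_le_sylow
    have hlt : Nat.card H < Nat.card G := lt_of_not_ge fun hge => hne (Subgroup.eq_top_of_le_card _ hge)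
    have hTi := inverts_map H.subtype H.subtype_injective
      (hIH H hlt (hasReal_normalizer_W hp2 hP' hinv') T)
    have hPT : P' ≤ (T : Subgroup H).map H.subtype := fun x hx => ⟨⟨x, hP'H hx⟩, hT hx, rfl⟩
    have hTP : (T : Subgroup H).map H.subtype = P' :=
      (Subgroup.eq_of_le_of_card_ge hPT (hmax _ ⟨T.2.map _, hle.trans hPT, hTi⟩)).symm
    obtain ⟨S, hS⟩ := hP'.exists_le_sylow
    rcases hS.eq_or_lt with e | hlt'
    · exact hcon S (e ▸ hinv')
    haveI := S.2.isNilpotent
    have hnc := Group.normalizerCondition_of_isNilpotent (G := (S : Subgroup G))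
    have h1 : P'.subgroupOf (S : Subgroup G) < ⊤ := lt_top_iff_ne_top.2 fun h =>
      hlt'.not_ge (Subgroup.subgroupOf_eq_top.1 h)
    obtain ⟨x, hx, hxn⟩ := SetLike.exists_of_lt (hnc _ h1)
    rw [← Subgroup.subgroupOf_normalizer_eq hS] at hx
    -- `⟨P', x⟩` is a `p`-subgroup of `H`
    set R := P' ⊔ Subgroup.zpowers (x : G)
    have hRS : R ≤ (S : Subgroup G) := sup_le hS (Subgroup.zpowers_le.2 x.2)
    have hRH : R ≤ H := sup_le hP'H (Subgroup.zpowers_le.2 (hNP hx))
    have hR : R.subgroupOf H = (T : Subgroup H) :=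
      T.3 ((S.2.to_le hRS).comap_of_injective H.subtype H.subtype_injective) fun z hz => by
        have : (z : G) ∈ P' := hTP.le ⟨z, hz, rfl⟩
        exact Subgroup.mem_sup_left this
    apply hxn
    have hxR : (⟨(x : G), hNP hx⟩ : H) ∈ R.subgroupOf H := Subgroup.mem_sup_right (Subgroup.mem_zpowers _)
    rw [hR] at hxR
    exact hTP.le ⟨_, hxR, rfl⟩
  -- the `p'`-core is trivial
  have hK : Cfsg.pPrimeCore p G = ⊥ := by
    by_contra hK
    set K := Cfsg.pPrimeCore p G with hKdef
    haveI : K.Normal := Cfsg.pPrimeCore_normal p G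
    have hKp : (Nat.card K).Coprime p := PCore.pPrimeCore_coprime p G
    set π := QuotientGroup.mk' K with hπ
    have hker : ∀ {R : Subgroup G}, IsPGroup p R → ∀ x ∈ R, π x = 1 → x = 1 := fun hR x hx h1 =>
      Subgroup.mem_bot.1 ((PCore.inf_eq_bot_of_isPGroup_of_coprime hR hKp).le
        ⟨hx, (QuotientGroup.eq_one_iff x).1 h1⟩)
    have hlt : Nat.card (G ⧸ K) < Nat.card G := by
      rw [Subgroup.card_eq_card_quotient_mul_card_subgroup K]
      exact lt_mul_of_one_lt_right Nat.card_pos ((Subgroup.one_lt_card_iff_ne_bot K).2 hK)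
    have hrq : HasReal p (G ⧸ K) := hasReal_of_inverted hp2 (hQ.map π) ⟨y, hy, rfl⟩
      (fun e => hy1 (hker hQ y hy e)) (n := π t) (by rw [← map_inv π t, ← map_mul, ← map_mul, ht, map_inv])
    obtain ⟨S⟩ : Nonempty (Sylow p G) := inferInstance
    have h1 := hIH _ hlt hrq (S.mapSurjective (QuotientGroup.mk'_surjective K))
    rw [Sylow.coe_mapSurjective] at h1
    set N' := Subgroup.normalizer (ZJ.W p false ((S : Subgroup G).map π) : Set (G ⧸ K)) with hN'
    set M := N'.comap π
    have hSM : (S : Subgroup G) ≤ M := fun x hx =>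
      ZJ.normalizer_le_normalizer_W _ (Subgroup.le_normalizer (Subgroup.mem_map_of_mem π hx))
    have hMr : HasReal p M := hasReal_of_surjective hp2 (π.subgroupComap N')
      (MonoidHom.subgroupComap_surjective_of_surjective π N' (QuotientGroup.mk'_surjective K))
      (hasReal_normalizer_W hp2 (S.2.map π) h1)
    have hMtop : M = ⊤ := by_contra fun h => hM M S hSM h hMr
    -- Frattini
    set W := ZJ.W p false (S : Subgroup G)
    have hWn : (W.map π).Normal := by
      rw [← ZJ.W_map π (hker S.2), ← Subgroup.normalizer_eq_top_iff]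
      exact Subgroup.comap_injective (QuotientGroup.mk'_surjective K) (hMtop.trans (Subgroup.comap_top π).symm)
    set L := (W.map π).comap π
    haveI : L.Normal := hWn.comap π
    have hWp : IsPGroup p W := S.2.to_le (ZJ.W_le _)
    have hLeq : L = W ⊔ K := by rw [show L = (W.map π).comap π from rfl, Subgroup.comap_map_eq, hπ, QuotientGroup.ker_mk']
    obtain ⟨T, hT⟩ := (hWp.comap_of_injective L.subtype L.subtype_injective).exists_le_sylow
    have hWT : (T : Subgroup L).map L.subtype = W := by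
      have hWle : W ≤ (T : Subgroup L).map L.subtype := fun x hx =>
        ⟨⟨x, hLeq.ge (Subgroup.mem_sup_left hx)⟩, hT hx, rfl⟩
      refine (Subgroup.eq_of_le_of_card_ge hWle ?_).symm
      rw [Subgroup.card_map_of_injective L.subtype_injective]
      obtain ⟨j, hj⟩ := IsPGroup.iff_card.1 T.2
      have h2 : Nat.card (T : Subgroup L) ∣ Nat.card W * Nat.card K := by
        refine (Subgroup.card_subgroup_dvd_card _).trans ?_
        rw [hLeq]
        exact PCore.card_sup_dvd K W
      exact Nat.le_of_dvd Nat.card_pos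
        (Nat.Coprime.dvd_of_dvd_mul_right (by rw [hj]; exact (hKp.symm).pow_left j) h2)
    have hfr := Sylow.normalizer_sup_eq_top T
    rw [hWT] at hfr
    set N := Subgroup.normalizer (W : Set G)
    have hN : N ≠ ⊤ := fun h => hW S (Subgroup.normalizer_eq_top_iff.1 h)
    refine hM N S (Subgroup.le_normalizer.trans (ZJ.normalizer_le_normalizer_W _)) hN
      (hasReal_of_surjective hp2 (π.comp N.subtype) (fun z => ?_) hrq)
    obtain ⟨g, rfl⟩ := QuotientGroup.mk'_surjective K z
    obtain ⟨n, hn, l, hl, rfl⟩ := Subgroup.mem_sup_of_normal_right.1 (hfr.ge (Subgroup.mem_top g))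
    obtain ⟨w, hw, k, hk, rfl⟩ := Subgroup.mem_sup_of_normal_right.1 (hLeq.le hl)
    refine ⟨⟨n * w, N.mul_mem hn (Subgroup.le_normalizer hw)⟩, ?_⟩
    show π (n * w) = π (n * (w * k))
    rw [← mul_assoc, map_mul π (n * w) k, show π k = 1 from (QuotientGroup.eq_one_iff k).2 hk, mul_one]
  -- the core
  set W0 := Cfsg.pCore p G with hW0def
  haveI hW0n : W0.Normal := Cfsg.pCore_normal p G
  have hW0p : IsPGroup p W0 := PCore.isPGroup_pCore p G
  have hW0 : W0 ≠ ⊥ := by
    intro h0
    have hnorm : Subgroup.normalizer (Subgroup.zpowers y : Set G) ≠ ⊤ := fun h => hy1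
      (Subgroup.mem_bot.1 (h0 ▸ PCore.le_pCore (Subgroup.normalizer_eq_top_iff.1 h) (zpowers_isPGroup hQ hy)
        (Subgroup.mem_zpowers y)))
    set H := Subgroup.normalizer (Subgroup.zpowers y : Set G) with hH
    have hr : HasReal p H := hasReal_subgroup hp2 hQ hy hy1
      (Subgroup.le_normalizer (Subgroup.mem_zpowers y)) (mem_normalizer_zpowers_of_inv ht) ht
    obtain ⟨T⟩ : Nonempty (Sylow p H) := inferInstance
    have hlt : Nat.card H < Nat.card G := lt_of_not_ge fun hge => hnorm (Subgroup.eq_top_of_le_card _ hge)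
    obtain ⟨P', hP', -, ⟨z, hz, hz1, -⟩, hn⟩ := climb _ (T.2.map H.subtype)
      (inverts_map H.subtype H.subtype_injective (hIH H hlt hr T))
    exact ZJ.W_ne_bot hP' (fun e => hz1 (Subgroup.mem_bot.1 (e ▸ hz)))
      (le_bot_iff.1 ((PCore.le_pCore hn (hP'.to_le (ZJ.W_le P'))).trans h0.le))
  -- the quotient by the core
  have hrq : ¬ HasReal p (G ⧸ W0) := by
    intro h
    have hlt : Nat.card (G ⧸ W0) < Nat.card G := by
      rw [Subgroup.card_eq_card_quotient_mul_card_subgroup W0]
      exact lt_mul_of_one_lt_right Nat.card_pos ((Subgroup.one_lt_card_iff_ne_bot W0).2 hW0)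
    obtain ⟨S⟩ : Nonempty (Sylow p G) := inferInstance
    set π := QuotientGroup.mk' W0 with hπ
    have h1 := hIH _ hlt h (S.mapSurjective (QuotientGroup.mk'_surjective W0))
    rw [Sylow.coe_mapSurjective] at h1
    set N' := Subgroup.normalizer (ZJ.W p false ((S : Subgroup G).map π) : Set (G ⧸ W0)) with hN'
    refine hM (N'.comap π) S (fun x hx =>
      ZJ.normalizer_le_normalizer_W _ (Subgroup.le_normalizer (Subgroup.mem_map_of_mem π hx))) (fun htop => ?_)
      (hasReal_of_surjective hp2 (π.subgroupComap N')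
        (MonoidHom.subgroupComap_surjective_of_surjective π N' (QuotientGroup.mk'_surjective W0))
        (hasReal_normalizer_W hp2 (S.2.map π) h1))
    have hn : (ZJ.W p false ((S : Subgroup G).map π)).Normal := Subgroup.normalizer_eq_top_iff.1
      (Subgroup.comap_injective (QuotientGroup.mk'_surjective W0) (htop.trans (Subgroup.comap_top π).symm))
    obtain ⟨z, hz, hz1, -⟩ := h1
    have h2 := PCore.le_pCore hn ((S.2.map π).to_le (ZJ.W_le _))
    rw [PCore.pCore_quotient] at h2
    exact ZJ.W_ne_bot (S.2.map π) (fun e => hz1 (Subgroup.mem_bot.1 (e ▸ hz))) (le_bot_iff.1 h2)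
  set C0 := Subgroup.centralizer (W0 : Set G) with hC0
  haveI : C0.Normal := Subgroup.normal_centralizer
  -- a nontrivial action on the core
  obtain ⟨t0, ht0, ht0c⟩ : ∃ u : G, (∃ k : ℕ, u ^ 2 ^ k = 1) ∧ u ∉ C0 := by
    by_contra hall
    push Not at hall
    obtain ⟨R, hR, u, huR, ⟨k, hk⟩, huc⟩ := hreal
    have huW := hall u ⟨k, hk⟩
    refine huc (Subgroup.mem_centralizer_iff.2 fun q hq => ?_)
    set c := q⁻¹ * (u * q * u⁻¹) with hc
    have hcR : c ∈ R := R.mul_mem (R.inv_mem hq) ((Subgroup.mem_normalizer_iff.1 huR q).1 hq)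
    have hcW : c ∈ W0 := by
      by_contra hcW
      apply hrq
      refine ⟨R.map (QuotientGroup.mk' W0), hR.map _, QuotientGroup.mk' W0 u,
        Subgroup.le_normalizer_map _ ⟨u, huR, rfl⟩, ⟨k, by rw [← map_pow, hk, map_one]⟩, fun h => hcW ?_⟩
      have h1 := Subgroup.mem_centralizer_iff.1 h _ ⟨q, hq, rfl⟩
      rw [← QuotientGroup.eq_one_iff]
      show QuotientGroup.mk' W0 c = 1
      rw [hc, map_mul, map_mul, map_mul, map_inv, map_inv, ← h1, mul_inv_cancel_right, inv_mul_cancel]
    have hcu : u * c * u⁻¹ = c := by rw [← Subgroup.mem_centralizer_iff.1 huW c hcW, mul_inv_cancel_right]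
    have hpow : ∀ i : ℕ, u ^ i * q * (u ^ i)⁻¹ = q * c ^ i := by
      intro i
      induction i with
      | zero => simp
      | succ i ih =>
        calc u ^ (i + 1) * q * (u ^ (i + 1))⁻¹ = u * (u ^ i * q * (u ^ i)⁻¹) * u⁻¹ := by group
          _ = (u * q * u⁻¹) * (u * c ^ i * u⁻¹) := by rw [ih]; group
          _ = (q * c) * c ^ i := by rw [← conj_pow, hcu, hc, mul_inv_cancel_left]
          _ = q * c ^ (i + 1) := by rw [pow_succ', mul_assoc]
    have h2 := hpow (2 ^ k)
    rw [hk] at h2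
    simp only [one_mul, inv_one, mul_one] at h2
    have hc1 := eq_one_of_pow_eq hR hp2 hcR (mul_eq_left.1 h2.symm)
    rw [hc, inv_mul_eq_one] at hc1
    exact (mul_inv_eq_iff_eq_mul.1 hc1.symm).symm
  -- `2`-elements of proper overgroups centralize the core
  have hM2 : ∀ (M : Subgroup G) (S : Sylow p G), (S : Subgroup G) ≤ M → M ≠ ⊤ →
      ∀ u ∈ M, ∀ k : ℕ, u ^ 2 ^ k = 1 → u ∈ C0 := by
    intro M S hS hne u hu k hk
    by_contra huc
    refine hM M S hS hne ⟨W0.subgroupOf M, hW0p.comap_of_injective M.subtype M.subtype_injective, ⟨u, hu⟩, ?_,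
      ⟨k, Subtype.ext hk⟩, fun hc => huc (Subgroup.mem_centralizer_iff.2 fun w hw => ?_)⟩
    · rw [Subgroup.normalizer_eq_top]; exact Subgroup.mem_top _
    · exact congrArg Subtype.val
        (Subgroup.mem_centralizer_iff.1 hc ⟨w, hS (PCore.pCore_le_sylow S hw)⟩ hw)
  -- the group is `p`-constrained
  obtain ⟨S⟩ : Nonempty (Sylow p G) := inferInstance
  have hc : C0 ≤ W0 := by
    obtain ⟨T, hT⟩ := Transfer.exists_sylow_map_eq_inf S C0
    have hfr := Sylow.normalizer_sup_eq_top T
    rw [hT] at hfr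
    set T0 := (S : Subgroup G) ⊓ C0 with hT0
    have hST : (S : Subgroup G) ≤ Subgroup.normalizer (T0 : Set G) := by
      refine le_trans ?_ ZJ.inf_le_normalizer
      rw [Subgroup.normalizer_eq_top (H := C0), inf_top_eq]
      exact Subgroup.le_normalizer
    have hNtop : Subgroup.normalizer (T0 : Set G) = ⊤ := by
      by_contra hne
      obtain ⟨k, hk⟩ := ht0
      obtain ⟨n, hn, c, hcC, hnc⟩ := Subgroup.mem_sup_of_normal_right.1 (hfr.ge (Subgroup.mem_top t0))
      obtain ⟨m, hm, j, hj⟩ := exists_odd_pow n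
      have h1 := hM2 _ S hST hne _ (Subgroup.pow_mem _ hn m) j hj
      apply ht0c
      rw [← QuotientGroup.eq_one_iff]
      refine eq_one_of_two_power (k := k) ?_ hm ?_
      · rw [← QuotientGroup.mk_pow, hk, QuotientGroup.mk_one]
      · rw [← hnc, QuotientGroup.mk_mul, (QuotientGroup.eq_one_iff c).2 hcC, mul_one, ← QuotientGroup.mk_pow]
        exact (QuotientGroup.eq_one_iff _).2 h1
    have hT0W : T0 ≤ W0 := PCore.le_pCore (Subgroup.normalizer_eq_top_iff.1 hNtop) (S.2.to_le inf_le_left)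
    -- a central Sylow subgroup of `C0`
    haveI : T0.Normal := Subgroup.normalizer_eq_top_iff.1 hNtop
    have hTeq : (T : Subgroup C0) = T0.subgroupOf C0 := by
      rw [← hT, Subgroup.subgroupOf, Subgroup.comap_map_eq_self_of_injective C0.subtype_injective]
    haveI : (T : Subgroup C0).Normal := by rw [hTeq]; infer_instance
    obtain ⟨K0, hK0⟩ := Subgroup.exists_right_complement'_of_coprime T.card_coprime_index
    have hK0c : (Nat.card K0).Coprime p := by
      rw [← hK0.symm.index_eq_card]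
      exact PCore.coprime_of_not_dvd T.not_dvd_index
    have hcomm : ∀ s ∈ (T : Subgroup C0), ∀ x : C0, s * x = x * s := fun s hs x =>
      Subtype.ext (Subgroup.mem_centralizer_iff.1 x.2 s (hT0W (hT.le ⟨s, hs, rfl⟩)))
    have hchar : ∀ x : C0, (orderOf x).Coprime p → x ∈ K0 := by
      intro x hx
      obtain ⟨⟨⟨s, hs⟩, ⟨k, hk⟩⟩, hsk⟩ := hK0.2 x
      simp only at hsk
      have hxn : x ^ (orderOf x * Nat.card K0) = 1 := by rw [pow_mul, pow_orderOf_eq_one, one_pow]
      rw [← hsk, (show Commute s k from hcomm s hs k).mul_pow] at hxn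
      have hk1 : k ^ Nat.card K0 = 1 := congrArg Subtype.val (pow_card_eq_one' (x := (⟨k, hk⟩ : K0)))
      rw [hsk, mul_comm (orderOf x), pow_mul k, hk1, one_pow, mul_one] at hxn
      obtain ⟨j, hj⟩ := T.2 ⟨s, hs⟩
      have hs1 : s = 1 := orderOf_eq_one_iff.1 (Nat.eq_one_of_dvd_coprimes
        (Nat.Coprime.pow_left j (Nat.Coprime.mul_right hK0c.symm hx.symm))
        (orderOf_dvd_of_pow_eq_one (congrArg Subtype.val hj)) (orderOf_dvd_of_pow_eq_one hxn))
      rw [← hsk, hs1, one_mul]; exact hk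
    have hKn : (K0.map C0.subtype).Normal := ⟨by
      rintro _ ⟨x, hx, rfl⟩ g
      refine ⟨⟨g * (x : G) * g⁻¹, (inferInstance : C0.Normal).conj_mem x x.2 g⟩, hchar _ ?_, rfl⟩
      rw [Subgroup.orderOf_mk, show g * (x : G) * g⁻¹ = MulAut.conj g x from rfl, MulEquiv.orderOf_eq,
        Subgroup.orderOf_coe]
      exact hK0c.coprime_dvd_left (Subgroup.orderOf_dvd_natCard K0 hx)⟩
    have hbot : K0.map C0.subtype = ⊥ := le_bot_iff.1 (hK ▸ PCore.le_pPrimeCore hKn
      (by rwa [Subgroup.card_map_of_injective C0.subtype_injective]))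
    intro x hx
    obtain ⟨⟨⟨s, hs⟩, ⟨k, hk⟩⟩, hsk⟩ := hK0.2 ⟨x, hx⟩
    have hk1 : (k : G) = 1 := Subgroup.mem_bot.1 (hbot.le ⟨k, hk, rfl⟩)
    have hxs : x = (s : G) * (k : G) := (congrArg Subtype.val hsk).symm
    rw [hxs, hk1, mul_one]
    exact hT0W (hT.le ⟨s, hs, rfl⟩)
  have h2C0 : ∀ u : G, ∀ k : ℕ, u ^ 2 ^ k = 1 → u ∈ C0 → u = 1 := fun u k hk huc =>
    eq_one_of_pow_eq hW0p hp2 (hc huc) hk
  -- stability fails
  obtain ⟨B, hBn, hBp, A, hA, a, ha, hq, hne⟩ : ∃ (B : Subgroup G) (_ : B.Normal), IsPGroup p B ∧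
      ∃ A ∈ ZJ.maxGood p false (S : Subgroup G), ∃ a ∈ A,
        ⁅⁅B, Subgroup.zpowers a⁆, Subgroup.zpowers a⁆ = ⊥ ∧
        (QuotientGroup.mk a : G ⧸ Subgroup.centralizer (B : Set G)) ∉
          Cfsg.pCore p (G ⧸ Subgroup.centralizer (B : Set G)) := by
    by_contra hst
    push Not at hst
    refine hW S (W_normal_of hp2 hc S (fun B hB hBp A hA a ha hq => ?_) le_rfl fun _ _ _ h => h)
    exact hst B hB hBp A hA a ha hq
  haveI := hBn
  obtain ⟨H, hH, hW0H, hHa, u, huH, hu1, k, hk⟩ := exists_subgroup_of_quadratic hp2 hBp hq hne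
  have huk : u ^ 2 ^ k = 1 := by rw [← hk, pow_orderOf_eq_one]
  have huc : u ∉ C0 := fun h => hu1 (h2C0 u k huk h)
  have hHr : HasReal p H := by
    refine ⟨W0.subgroupOf H, hW0p.comap_of_injective H.subtype H.subtype_injective, ⟨u, huH⟩, ?_,
      ⟨k, Subtype.ext huk⟩, fun hc' => huc (Subgroup.mem_centralizer_iff.2 fun w hw => ?_)⟩
    · rw [Subgroup.normalizer_eq_top]; exact Subgroup.mem_top _
    · exact congrArg Subtype.val (Subgroup.mem_centralizer_iff.1 hc' ⟨w, hW0H hw⟩ hw)
  have hAH : A ≤ H := fun x hx => hHa x (ZJ.good_commute hA.2.1 hx ha)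
  have hAW : IsPGroup p ↥(A ⊔ W0) := S.2.to_le (sup_le hA.1 (PCore.pCore_le_sylow S))
  obtain ⟨T, hT⟩ := (hAW.comap_of_injective H.subtype H.subtype_injective).exists_le_sylow
  have hlt : Nat.card H < Nat.card G := lt_of_not_ge fun hge => hH (Subgroup.eq_top_of_le_card _ hge)
  obtain ⟨P', hP', hTP, -, hWn⟩ := climb _ (T.2.map H.subtype)
    (inverts_map H.subtype H.subtype_injective (hIH H hlt hHr T))
  have hAP : A ≤ P' := fun x hx => hTP ⟨⟨x, hAH hx⟩, hT (Subgroup.mem_sup_left hx), rfl⟩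
  obtain ⟨S', hS'⟩ := hP'.exists_le_sylow
  have hA' : A ∈ ZJ.maxGood p false (S' : Subgroup G) := card_maxGood_le hA (hAP.trans hS')
  have hAP' : A ∈ ZJ.maxGood p false P' := by
    rw [ZJ.maxGood_of_le hA' hAP hS']; exact ⟨hA', hAP⟩
  set B' := ZJ.W p false P' with hB'
  -- `W(S') ≤ W(P')`
  have hWW : ZJ.W p false (S' : Subgroup G) ≤ B' := by
    have hJ : ZJ.J p false P' ≤ ZJ.J p false (S' : Subgroup G) := sSup_le fun C hC => by
      rw [ZJ.maxGood_of_le hA' hAP hS'] at hC
      exact ZJ.maxGood_le_J hC.1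
    rw [hB', ZJ.W, Subgroup.closure_le]
    intro x hx
    refine Subgroup.subset_closure ⟨⟨ZJ.maxGood_le_J hAP' ?_, Subgroup.centralizer_le hJ hx.1.2⟩, hx.2⟩
    exact ZJ.W_le_maxGood hA' (Subgroup.subset_closure hx)
  haveI := hWn
  set C := Subgroup.centralizer (B' : Set G) with hC
  haveI : C.Normal := Subgroup.normal_centralizer
  have hAC : A ≤ C := fun x hx => Subgroup.mem_centralizer_iff.2 fun b hb =>
    ZJ.good_commute hA.2.1 (ZJ.W_le_maxGood hAP' hb) hx
  obtain ⟨T', hT'⟩ := Transfer.exists_sylow_map_eq_inf S' C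
  have hfr := Sylow.normalizer_sup_eq_top T'
  rw [hT'] at hfr
  set NT := Subgroup.normalizer (((S' : Subgroup G) ⊓ C : Subgroup G) : Set G) with hNT
  have hSN : (S' : Subgroup G) ≤ NT := by
    refine le_trans ?_ ZJ.inf_le_normalizer
    rw [Subgroup.normalizer_eq_top (H := C), inf_top_eq]
    exact Subgroup.le_normalizer
  have hNT' : NT ≠ ⊤ := fun h => by
    have haW : a ∈ W0 := PCore.le_pCore (Subgroup.normalizer_eq_top_iff.1 h) (S'.2.to_le inf_le_left)
      ⟨hA'.1 ha, hAC ha⟩
    exact hne (PCore.map_pCore_le (QuotientGroup.mk' _) (QuotientGroup.mk'_surjective _) ⟨a, haW, rfl⟩)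
  -- every `2`-element centralizes `W(P')`
  have h2C : ∀ v : G, ∀ j : ℕ, v ^ 2 ^ j = 1 → v ∈ C := by
    intro v j hj
    obtain ⟨n, hn, c, hcC, hnc⟩ := Subgroup.mem_sup_of_normal_right.1 (hfr.ge (Subgroup.mem_top v))
    obtain ⟨m, hm, i, hi⟩ := exists_odd_pow n
    have h1 := h2C0 _ i hi (hM2 NT S' hSN hNT' _ (Subgroup.pow_mem _ hn m) i hi)
    rw [← QuotientGroup.eq_one_iff]
    refine eq_one_of_two_power (k := j) ?_ hm ?_
    · rw [← QuotientGroup.mk_pow, hj, QuotientGroup.mk_one]
    · rw [← hnc, QuotientGroup.mk_mul, (QuotientGroup.eq_one_iff c).2 hcC, mul_one, ← QuotientGroup.mk_pow, h1,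
        QuotientGroup.mk_one]
  have hCS : C ⊔ (S' : Subgroup G) = ⊤ := by_contra fun h =>
    huc (hM2 _ S' le_sup_right h u (Subgroup.mem_sup_left (h2C u k huk)) k huk)
  apply hW S'
  rw [← Subgroup.normalizer_eq_top_iff, eq_top_iff, ← hCS]
  exact sup_le ((Subgroup.centralizer_le hWW).trans (Subgroup.centralizer_le_normalizer _))
    (Subgroup.le_normalizer.trans (ZJ.normalizer_le_normalizer_W _))

/-- An element of `2`-power order acting nontrivially on some `p`-subgroup forces an inversion in the normalizer of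
`Z(J(S))`. -/
theorem inverts_of_hasReal (hp2 : p ≠ 2) (h : HasReal p G) (S : Sylow p G) : Inverts p (S : Subgroup G) := by
  suffices H : ∀ n, Below.{u} p n from H _ G (Nat.lt_succ_self _) h S
  intro n
  induction n using Nat.strong_induction_on with
  | _ n ih =>
    intro K _ _ hK hr
    exact inverts_step hp2 (ih (Nat.card K) hK) hr

end CfsgLib.RealZJ
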