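import Mathlib
import Cfsg.Prelude.Def_PLocal
import Cfsg.Agent.ZJ.Quadratic
import Cfsg.Agent.QdFree.Corollaries
import Cfsg.Agent.Subnormal.BaerSuzuki
import Cfsg.Agent.CoprimeAction.Basic

/-!
Two quadratic elements: every involution in the group they generate commutes with both.
-/

set_option autoImplicit false
set_option linter.style.haveILetI false

namespace CfsgLib.RealZJ

open scoped commutatorElement IsMulCommutative

variable {R : Type*} [Ring R]

/-- `g` and `h` are conjugate expressions in `N` and `N'`. -/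
def Paired (N N' g h : R) : Prop :=
  ∃ α β γ δ : R, (Commute α N ∧ Commute α N') ∧ (Commute β N ∧ Commute β N') ∧ (Commute γ N ∧ Commute γ N') ∧
    (Commute δ N ∧ Commute δ N') ∧
    g = α + β * N + γ * N' + δ * (N * N') ∧ h = α - β * N - γ * N' + δ * (N' * N)

theorem paired_one (N N' : R) : Paired N N' 1 1 :=
  ⟨1, 0, 0, 0, ⟨.one_left _, .one_left _⟩, ⟨.zero_left _, .zero_left _⟩, ⟨.zero_left _, .zero_left _⟩,
    ⟨.zero_left _, .zero_left _⟩, by simp, by simp⟩

theorem Paired.step₁ {N N' g h : R} (hN : N * N = 0) (e : R) (he : ∀ r, Commute e r) (hgh : Paired N N' g h) :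
    Paired N N' ((1 + e * N) * g) (h * (1 - e * N)) := by
  obtain ⟨α, β, γ, δ, hα, hβ, hγ, hδ, rfl, rfl⟩ := hgh
  refine ⟨α, β + e * α, γ, δ + e * γ, hα, ⟨hβ.1.add_left ((he N).mul_left hα.1), hβ.2.add_left ((he N').mul_left hα.2)⟩,
    hγ, ⟨hδ.1.add_left ((he N).mul_left hγ.1), hδ.2.add_left ((he N').mul_left hγ.2)⟩, ?_, ?_⟩
  · have h1 : N * α = α * N := hα.1.eq.symm
    have h2 : N * (β * N) = 0 := by rw [← mul_assoc, ← hβ.1.eq, mul_assoc, hN, mul_zero]
    have h3 : N * (γ * N') = γ * (N * N') := by rw [← mul_assoc, ← hγ.1.eq, mul_assoc]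
    have h4 : N * (δ * (N * N')) = 0 := by
      rw [← mul_assoc, ← hδ.1.eq, mul_assoc δ, ← mul_assoc N N N', hN, zero_mul, mul_zero]
    rw [add_mul, one_mul, mul_assoc e N]
    simp only [mul_add]
    rw [h1, h2, h3, h4]
    noncomm_ring
  · have h1 : α * (e * N) = e * α * N := by rw [← mul_assoc, (he α).eq.symm]
    have h2 : β * N * (e * N) = 0 := by
      rw [(he N).eq, ← mul_assoc, mul_assoc β, hN, mul_zero, zero_mul]
    have h3 : γ * N' * (e * N) = e * γ * (N' * N) := by
      rw [← mul_assoc, mul_assoc γ, ← (he N').eq, ← mul_assoc, ← (he γ).eq, mul_assoc]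
    have h4 : δ * (N' * N) * (e * N) = 0 := by
      rw [(he N).eq, ← mul_assoc, mul_assoc δ, mul_assoc N', hN, mul_zero, mul_zero, zero_mul]
    rw [mul_sub, mul_one, add_mul, sub_mul, sub_mul, h1, h2, h3, h4]
    noncomm_ring

theorem Paired.step₂ {N N' g h : R} (hN : N * N = 0) (hN' : N' * N' = 0) (e : R) (he : ∀ r, Commute e r)
    (hgh : Paired N N' g h) : Paired N N' ((1 + e * N') * g) (h * (1 - e * N')) := by
  obtain ⟨α, β, γ, δ, hα, hβ, hγ, hδ, rfl, rfl⟩ := hgh
  set c := N * N' + N' * N with hc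
  have hcN : Commute c N := by
    show c * N = N * c
    rw [hc, add_mul, mul_add, mul_assoc N' N N, hN, mul_zero, add_zero, ← mul_assoc N N N', hN, zero_mul,
      zero_add, mul_assoc]
  have hcN' : Commute c N' := by
    show c * N' = N' * c
    rw [hc, add_mul, mul_add, mul_assoc N N' N', hN', mul_zero, zero_add, ← mul_assoc N' N' N, hN', zero_mul,
      add_zero, mul_assoc]
  refine ⟨α + e * β * c, β, γ + e * α + e * δ * c, δ - e * β,
    ⟨hα.1.add_left (((he N).mul_left hβ.1).mul_left hcN), hα.2.add_left (((he N').mul_left hβ.2).mul_left hcN')⟩,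
    hβ,
    ⟨(hγ.1.add_left ((he N).mul_left hα.1)).add_left (((he N).mul_left hδ.1).mul_left hcN),
      (hγ.2.add_left ((he N').mul_left hα.2)).add_left (((he N').mul_left hδ.2).mul_left hcN')⟩,
    ⟨hδ.1.sub_left ((he N).mul_left hβ.1), hδ.2.sub_left ((he N').mul_left hβ.2)⟩, ?_, ?_⟩
  · have h1 : N' * α = α * N' := hα.2.eq.symm
    have h2 : N' * (β * N) = β * (c - N * N') := by
      rw [← mul_assoc, ← hβ.2.eq, mul_assoc, hc, add_sub_cancel_left]
    have h3 : N' * (γ * N') = 0 := by rw [← mul_assoc, ← hγ.2.eq, mul_assoc, hN', mul_zero]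
    have h4 : N' * (δ * (N * N')) = δ * (c * N') := by
      rw [← mul_assoc, ← hδ.2.eq, mul_assoc δ, hc, add_mul, mul_assoc N N' N', hN', mul_zero, zero_add, mul_assoc]
    rw [add_mul, one_mul, mul_assoc e N']
    simp only [mul_add]
    rw [h1, h2, h3, h4]
    noncomm_ring
  · have h1 : α * (e * N') = e * α * N' := by rw [← mul_assoc, (he α).eq.symm]
    have h2 : β * N * (e * N') = e * β * (c - N' * N) := by
      rw [← mul_assoc, mul_assoc β, ← (he N).eq, ← mul_assoc, ← (he β).eq, mul_assoc, hc, add_sub_cancel_right]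
    have h3 : γ * N' * (e * N') = 0 := by
      rw [(he N').eq, ← mul_assoc, mul_assoc γ, hN', mul_zero, zero_mul]
    have h4 : δ * (N' * N) * (e * N') = e * δ * (c * N') := by
      rw [← mul_assoc, mul_assoc δ, ← (he (N' * N)).eq, ← mul_assoc, ← (he δ).eq, mul_assoc (e * δ), hc, add_mul,
        mul_assoc N N' N', hN', mul_zero, zero_add]
    rw [mul_sub, mul_one, add_mul, sub_mul, sub_mul, h1, h2, h3, h4]
    noncomm_ring

variable {H : Type*} [Group H] [Finite H]

/-- An element squaring to `1` in the group generated by two quadratic elements commutes with both. -/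
theorem commute_of_quadratic_pair (h2 : ∀ r : R, r + r = 0 → r = 0) (ρ : H →* R) {a b y : H}
    (ha : (ρ a - 1) * (ρ a - 1) = 0) (hb : (ρ b - 1) * (ρ b - 1) = 0) (hy : y ∈ Subgroup.closure {a, b})
    (hy2 : ρ y * ρ y = 1) : Commute (ρ y) (ρ a) := by
  set N := ρ a - 1 with hNdef
  set N' := ρ b - 1 with hN'def
  have hinv : ∀ (x : H) (M : R), M = ρ x - 1 → M * M = 0 → ρ x⁻¹ = 1 - M := by
    intro x M hM hMM
    have h3 : ρ x⁻¹ * ρ x = 1 := by rw [← map_mul, inv_mul_cancel, map_one]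
    have h5 : (1 + M) * (1 - M) = 1 := by
      rw [add_mul, one_mul, mul_sub M, mul_one, hMM, sub_zero]; abel
    have h4 : ρ x * (1 - M) = 1 := by
      rw [show ρ x = 1 + M by rw [hM]; abel]; exact h5
    calc ρ x⁻¹ = ρ x⁻¹ * (ρ x * (1 - M)) := by rw [h4, mul_one]
      _ = 1 - M := by rw [← mul_assoc, h3, one_mul]
  have e1 : ρ a = 1 + 1 * N := by rw [one_mul, hNdef]; abel
  have e2 : ρ b = 1 + 1 * N' := by rw [one_mul, hN'def]; abel
  have e3 : ρ a⁻¹ = 1 + (-1) * N := by rw [hinv a N hNdef ha]; noncomm_ring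
  have e4 : ρ b⁻¹ = 1 + (-1) * N' := by rw [hinv b N' hN'def hb]; noncomm_ring
  have f1 : ρ a⁻¹ = 1 - 1 * N := by rw [hinv a N hNdef ha, one_mul]
  have f2 : ρ b⁻¹ = 1 - 1 * N' := by rw [hinv b N' hN'def hb, one_mul]
  have f3 : ρ a = 1 - (-1) * N := by rw [e1]; noncomm_ring
  have f4 : ρ b = 1 - (-1) * N' := by rw [e2]; noncomm_ring
  have key : Paired N N' (ρ y) (ρ y⁻¹) := by
    clear hy2
    induction hy using Subgroup.closure_induction_left with
    | one => rw [inv_one, map_one]; exact paired_one N N'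
    | mul_left x hx z hz ih =>
      rw [_root_.mul_inv_rev, map_mul, map_mul]
      rcases hx with rfl | rfl
      · rw [e1, f1]; exact ih.step₁ ha 1 Commute.one_left
      · rw [e2, f2]; exact ih.step₂ ha hb 1 Commute.one_left
    | inv_mul_cancel x hx z hz ih =>
      rw [_root_.mul_inv_rev, inv_inv, map_mul, map_mul]
      rcases hx with rfl | rfl
      · rw [e3, f3]; exact ih.step₁ ha (-1) fun r => (Commute.one_left r).neg_left
      · rw [e4, f4]; exact ih.step₂ ha hb (-1) fun r => (Commute.one_left r).neg_left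
  obtain ⟨α, β, γ, δ, hα, hβ, hγ, hδ, hg, hh⟩ := key
  have hyy : ρ y⁻¹ = ρ y := by
    calc ρ y⁻¹ = ρ y⁻¹ * (ρ y * ρ y) := by rw [hy2, mul_one]
      _ = ρ y := by rw [← mul_assoc, ← map_mul, inv_mul_cancel, map_one, one_mul]
  have hsum : ρ y + ρ y = α + α + δ * (N * N' + N' * N) := by
    nth_rw 1 [hg]
    rw [← hyy, hh]
    noncomm_ring
  have hcN : Commute (N * N' + N' * N) N := by
    show (N * N' + N' * N) * N = N * (N * N' + N' * N)
    rw [add_mul, mul_add, mul_assoc N' N N, ha, mul_zero, add_zero, ← mul_assoc N N N', ha, zero_mul, zero_add,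
      mul_assoc]
  have hc : Commute (ρ y + ρ y) N := by
    rw [hsum]; exact (hα.1.add_left hα.1).add_left (hδ.1.mul_left hcN)
  have hyN : ρ y * N = N * ρ y := by
    refine sub_eq_zero.1 (h2 _ ?_)
    have := hc.eq
    rw [add_mul, mul_add] at this
    rw [← sub_eq_zero] at this
    rw [← this]; abel
  rw [e1, one_mul]
  exact (Commute.one_right _).add_right hyN

variable {G : Type*} [Group G] [Finite G] {p : ℕ} [hp : Fact p.Prime]

theorem conjEnd_quadratic {V : Subgroup G} [V.Normal] [IsMulCommutative V] {a : G}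
    (ha : ∀ v ∈ V, a * ⁅a, v⁆ = ⁅a, v⁆ * a) :
    (ZJ.conjEnd V a - 1) * (ZJ.conjEnd V a - 1) = 0 := by
  set ρ := ZJ.conjEnd V
  refine DFunLike.ext _ _ fun v => ?_
  have key : ρ a (ρ a v - v) = ρ a v - v := by
    refine Additive.toMul.injective (Subtype.ext ?_)
    have hv : ((ρ a v - v).toMul : G) = ⁅a, (v.toMul : G)⁆ := by
      rw [toMul_sub, div_eq_mul_inv, Subgroup.coe_mul, Subgroup.coe_inv, ZJ.conjEnd_apply, commutatorElement_def]
    rw [ZJ.conjEnd_apply, hv, ha _ v.toMul.2]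
    group
  show ρ a (ρ a v - v) - (ρ a v - v) = 0
  rw [key, sub_self]

end CfsgLib.RealZJ
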