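import Cfsg.Agent.RealZJ.Quad
import Cfsg.Agent.PGroup.Basic
import Cfsg.Agent.Transfer.Frobenius
import Cfsg.Agent.PCore.Basic
import Cfsg.Agent.StableQuot.Central

/-!
A quadratic element outside the core has an involution commuting with it modulo the kernel of the action.
-/

set_option autoImplicit false
set_option linter.style.haveILetI false
set_option maxHeartbeats 1000000

namespace CfsgLib.RealZJ

open scoped commutatorElement IsMulCommutative

variable {G : Type*} [Group G] [Finite G] {p : ℕ} [hp : Fact p.Prime]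

/-- A subgroup with odd image has an odd subgroup with the same image. -/
theorem exists_odd_supplement {H : Type*} [Group H] [Finite H] (f : G →* H) (Y : Subgroup G)
    (hodd : Odd (Nat.card (Y.map f))) : ∃ Y0 ≤ Y, Y0.map f = Y.map f ∧ Odd (Nat.card Y0) := by
  classical
  obtain ⟨Y0, ⟨hY0, hmap⟩, hmin⟩ := Set.exists_min_image {Z : Subgroup G | Z ≤ Y ∧ Z.map f = Y.map f}
    (fun Z => Nat.card Z) (Set.toFinite _) ⟨Y, le_rfl, rfl⟩
  refine ⟨Y0, hY0, hmap, ?_⟩
  set π : Y0 →* H := f.comp Y0.subtype with hπ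
  have hrange : π.range = Y.map f := by rw [hπ, MonoidHom.range_comp, Subgroup.range_subtype, hmap]
  have hsupp : ∀ Z : Subgroup Y0, Z ⊔ π.ker = ⊤ → Z = ⊤ := by
    intro Z hZ
    have e1 : (Z.map Y0.subtype).map f = Y.map f := by
      rw [Subgroup.map_map, ← hπ, ← hrange, MonoidHom.range_eq_map, ← hZ, Subgroup.map_sup,
        (Subgroup.map_eq_bot_iff _).2 le_rfl, sup_bot_eq]
    have h1 := hmin _ ⟨(Subgroup.map_subtype_le _).trans hY0, e1⟩
    rw [Subgroup.card_map_of_injective Y0.subtype_injective] at h1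
    exact Subgroup.eq_top_of_le_card _ h1
  obtain ⟨P⟩ : Nonempty (Sylow 2 Y0) := inferInstance
  have hPK : (P : Subgroup Y0) ≤ π.ker := by
    intro x hx
    rw [MonoidHom.mem_ker, ← orderOf_eq_one_iff]
    obtain ⟨k, hk⟩ := P.isPGroup' ⟨x, hx⟩
    have h1 : orderOf (π x) ∣ 2 ^ k := orderOf_dvd_of_pow_eq_one (by
      rw [← map_pow, show x ^ 2 ^ k = 1 from congrArg Subtype.val hk, map_one])
    have h2 : orderOf (π x) ∣ Nat.card (Y.map f) := by
      rw [← hrange]; exact Subgroup.orderOf_dvd_natCard _ ⟨x, rfl⟩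
    exact Nat.eq_one_of_dvd_coprimes (hodd.coprime_two_left.pow_left k) h1 h2
  obtain ⟨T, hT⟩ := Transfer.exists_sylow_map_eq_inf P π.ker
  rw [inf_eq_left.2 hPK] at hT
  have hfr := Sylow.normalizer_sup_eq_top T
  rw [hT] at hfr
  have hn := hsupp _ hfr
  haveI : (P : Subgroup Y0).Normal := Subgroup.normalizer_eq_top_iff.1 hn
  obtain ⟨C, hC⟩ := Subgroup.exists_right_complement'_of_coprime P.card_coprime_index
  have hCtop : C = ⊤ := hsupp C (eq_top_iff.2 (hC.sup_eq_top.ge.trans (sup_le (hPK.trans le_sup_right) le_sup_left)))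
  have hbot : Nat.card (P : Subgroup Y0) = 1 := by
    have := hC.card_mul
    rw [hCtop, Subgroup.card_top] at this
    exact Nat.eq_of_mul_eq_mul_right Nat.card_pos (by rw [this, one_mul])
  rw [← Nat.not_even_iff_odd, even_iff_two_dvd]
  intro h2
  have := P.dvd_card_of_dvd_card h2
  rw [hbot] at this
  omega

/-- A quadratic element of an odd group acting on `V` lies in the core of its image. -/
theorem mem_pCore_of_odd (hp2 : p ≠ 2) {V Y : Subgroup G} [V.Normal] (hV : Cfsg.IsElementaryAbelian p V)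
    (hodd : Odd (Nat.card Y)) {a : G} (ha : a ∈ Y) (hq : ∀ v ∈ V, a * ⁅a, v⁆ = ⁅a, v⁆ * a) :
    (⟨QuotientGroup.mk a, a, ha, rfl⟩ : Y.map (QuotientGroup.mk' (Subgroup.centralizer (V : Set G)))) ∈
      Cfsg.pCore p _ := by
  haveI : (Subgroup.centralizer (V : Set G)).Normal := Subgroup.normal_centralizer
  haveI := hV.1
  set q := QuotientGroup.mk' (Subgroup.centralizer (V : Set G))
  set Y3 := V ⊔ Y with hY3
  have hVp : IsPGroup p V := fun v => ⟨1, Subtype.ext (by
    rw [Subgroup.coe_pow, pow_one, Subgroup.coe_one]; exact hV.2 v v.2)⟩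
  have hodd3 : Odd (Nat.card Y3) := by
    obtain ⟨k, hk⟩ := IsPGroup.iff_card.1 hVp
    have h1 : Odd (Nat.card V * Nat.card Y) := by
      rw [hk]; exact ((hp.out.odd_of_ne_two hp2).pow).mul hodd
    exact Odd.of_dvd_nat h1 (by simpa [hY3, sup_comm, mul_comm] using PCore.card_sup_dvd V Y)
  have hst := QdFree.isNormalizerPStable_of_odd (G := Y3) hodd3 hp2
  set P := V.subgroupOf Y3
  have ha3 : a ∈ Y3 := Subgroup.mem_sup_right ha
  have hN : ∀ y : Y3, y ∈ Subgroup.normalizer (P : Set Y3) := fun y => by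
    rw [Subgroup.normalizer_eq_top]; exact Subgroup.mem_top y
  have h1 := hst P (hVp.comap_of_injective Y3.subtype Y3.subtype_injective) ⟨a, ha3⟩ (hN _)
    (StableQuot.quadratic_of_pointwise fun v hv => Subtype.ext
      (commutatorElement_eq_one_iff_mul_comm.2 (hq v hv)))
  have hmem : ∀ y : Y3, q (y : G) ∈ Y.map q := by
    have hle : Y3.map q ≤ Y.map q := by
      rw [hY3, Subgroup.map_sup]
      refine sup_le ?_ le_rfl
      rintro _ ⟨v, hv, rfl⟩
      rw [show q v = 1 from (QuotientGroup.eq_one_iff v).2 (Subgroup.mem_centralizer_iff.2 fun w hw =>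
        setLike_mul_comm hw hv)]
      exact one_mem _
    exact fun y => hle ⟨y, y.2, rfl⟩
  let φ : Subgroup.normalizer (P : Set Y3) →* Y.map q :=
    (q.comp (Y3.subtype.comp (Subgroup.normalizer (P : Set Y3)).subtype)).codRestrict _ fun y => hmem y
  have hker : (Subgroup.centralizer (P : Set Y3)).subgroupOf (Subgroup.normalizer (P : Set Y3)) ≤ φ.ker := by
    intro c hc
    refine MonoidHom.mem_ker.2 (Subtype.ext ?_)
    refine (QuotientGroup.eq_one_iff ((c : Y3) : G)).2 (Subgroup.mem_centralizer_iff.2 fun v hv => ?_)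
    exact congrArg Subtype.val
      (Subgroup.mem_centralizer_iff.1 hc (⟨v, Subgroup.mem_sup_left hv⟩ : Y3) hv)
  refine PCore.map_pCore_le (QuotientGroup.lift _ φ hker) ?_ ⟨_, h1, rfl⟩
  rintro ⟨_, y, hy, rfl⟩
  exact ⟨QuotientGroup.mk ⟨⟨y, Subgroup.mem_sup_right hy⟩, hN _⟩, rfl⟩

/-- The witness in a faithful setting: some nontrivial element of `2`-power order commutes with `a`
modulo the kernel, inside a proper subgroup containing the core. -/
theorem exists_subgroup_of_not_mem_pCore (hp2 : p ≠ 2) {V : Subgroup G} [V.Normal]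
    (hV : Cfsg.IsElementaryAbelian p V) {a : G} (hq : ∀ v ∈ V, a * ⁅a, v⁆ = ⁅a, v⁆ * a)
    (C : Subgroup G) [C.Normal] (hC : C = Subgroup.centralizer (V : Set G))
    (hne : (QuotientGroup.mk a : G ⧸ C) ∉ Cfsg.pCore p (G ⧸ C)) :
    ∃ H : Subgroup G, H ≠ ⊤ ∧ Cfsg.pCore p G ≤ H ∧ (∀ x, x * a = a * x → x ∈ H) ∧
      ∃ t ∈ H, t ≠ 1 ∧ ∃ k : ℕ, orderOf t = 2 ^ k := by
  classical
  haveI := hV.1
  subst hC
  set C := Subgroup.centralizer (V : Set G) with hC
  set q := QuotientGroup.mk' C with hqdef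
  set O := Cfsg.pCore p (G ⧸ C) with hO
  haveI hOn : O.Normal := Cfsg.pCore_normal p _
  set H2 := Subgroup.centralizer ({q a} : Set (G ⧸ C))
  refine ⟨H2.comap q ⊔ Cfsg.pCore p G, fun htop => hne ?_, le_sup_right,
    fun x hx => Subgroup.mem_sup_left (Subgroup.mem_centralizer_singleton_iff.2 (by rw [← map_mul, ← map_mul, hx])), ?_⟩
  · -- otherwise `⟨q a⟩ O` is a normal `p`-group
    set Z := Subgroup.zpowers (q a)
    have hap : ∃ k, (q a) ^ p ^ k = 1 := by
      haveI : (V : Subgroup G).Normal := inferInstance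
      refine ⟨Nat.card V, ?_⟩
      have h0 : ⁅⁅V, Subgroup.zpowers a⁆, Subgroup.zpowers a⁆ = ⊥ :=
        StableQuot.quadratic_of_pointwise fun v hv => commutatorElement_eq_one_iff_mul_comm.2 (hq v hv)
      have h1 := ZJ.pow_card_mem_centralizer_of_quadratic h0
      obtain ⟨k, hk⟩ := IsPGroup.iff_card.1 (show IsPGroup p V from fun v => ⟨1, Subtype.ext (by
        rw [Subgroup.coe_pow, pow_one, Subgroup.coe_one]; exact hV.2 v v.2)⟩)
      rw [hk] at h1
      have h2 : (q a) ^ p ^ k = 1 := by rw [← map_pow]; exact (QuotientGroup.eq_one_iff _).2 h1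
      have hle : k ≤ Nat.card V := hk ▸ (Nat.lt_pow_self hp.out.one_lt).le
      obtain ⟨m, hm⟩ := Nat.pow_dvd_pow p hle
      rw [hm, pow_mul, h2, one_pow]
    have hZp : IsPGroup p Z := by
      obtain ⟨k, hk⟩ := hap
      rintro ⟨z, hz⟩
      obtain ⟨i, rfl⟩ := Subgroup.mem_zpowers_iff.1 hz
      exact ⟨k, Subtype.ext (by
        rw [Subgroup.coe_pow, Subgroup.coe_one, ← zpow_natCast, ← zpow_mul, mul_comm, zpow_mul, zpow_natCast, hk,
          one_zpow])⟩
    have hall : ∀ g : G ⧸ C, g ∈ H2 ⊔ O := by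
      intro g
      obtain ⟨g, rfl⟩ := QuotientGroup.mk'_surjective C g
      have hle : (H2.comap q ⊔ Cfsg.pCore p G).map q ≤ H2 ⊔ O := by
        rw [Subgroup.map_sup]
        exact sup_le_sup (Subgroup.map_comap_le _ _) (PCore.map_pCore_le q (QuotientGroup.mk'_surjective C))
      exact hle ⟨g, htop.ge (Subgroup.mem_top g), rfl⟩
    have hn : (O ⊔ Z).Normal := by
      rw [← Subgroup.normalizer_eq_top_iff, eq_top_iff]
      intro g _
      refine Subgroup.mem_normalizer_fintype fun x hx => ?_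
      have hle : O ⊔ Z ≤ (O ⊔ Z).comap (MulAut.conj g).toMonoidHom := by
        refine sup_le (fun o ho => Subgroup.mem_sup_left (hOn.conj_mem o ho g)) (Subgroup.zpowers_le.2 ?_)
        show g * q a * g⁻¹ ∈ O ⊔ Z
        obtain ⟨c, hc, o, ho, rfl⟩ := Subgroup.mem_sup_of_normal_right.1 (hall g)
        have hc' := Subgroup.mem_centralizer_singleton_iff.1 hc
        have e : c * o * q a * (c * o)⁻¹ = (c * (o * (q a * o⁻¹ * (q a)⁻¹)) * c⁻¹) * q a := by
          calc c * o * q a * (c * o)⁻¹ = (c * (o * (q a * o⁻¹ * (q a)⁻¹)) * c⁻¹) * (c * q a * c⁻¹) := by group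
            _ = _ := by rw [hc', mul_inv_cancel_right]
        rw [e]
        exact mul_mem (Subgroup.mem_sup_left (hOn.conj_mem _ (O.mul_mem ho
          (hOn.conj_mem _ (O.inv_mem ho) _)) c)) (Subgroup.mem_sup_right (Subgroup.mem_zpowers _))
      exact hle hx
    exact PCore.le_pCore hn ((PCore.isPGroup_pCore p _).to_sup_of_normal_left hZp)
      (Subgroup.mem_sup_right (Subgroup.mem_zpowers _))
  -- a conjugate generating a non-`p`-group
  obtain ⟨g', hg'⟩ : ∃ g : G ⧸ C, ¬ IsPGroup p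
      ↥(Subgroup.zpowers (q a) ⊔ (Subgroup.zpowers (q a)).map (MulAut.conj g).toMonoidHom) := by
    by_contra hc
    exact hne (Subnormal.le_pCore_of_forall_isPGroup (fun g => not_not.1 fun h => hc ⟨g, h⟩) (Subgroup.mem_zpowers _))
  obtain ⟨g, rfl⟩ := QuotientGroup.mk'_surjective C g'
  set b := g * a * g⁻¹ with hb
  set Y := Subgroup.closure ({a, b} : Set G) with hY
  have hYmap : Y.map q = Subgroup.zpowers (q a) ⊔ (Subgroup.zpowers (q a)).map (MulAut.conj (q g)).toMonoidHom := by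
    rw [MonoidHom.map_zpowers, Subgroup.zpowers_eq_closure, Subgroup.zpowers_eq_closure, ← Subgroup.closure_union,
      hY, MonoidHom.map_closure, Set.image_pair, Set.singleton_union]
    simp [hb]
  have hqb : ∀ v ∈ V, b * ⁅b, v⁆ = ⁅b, v⁆ * b := by
    intro v hv
    have h0 := hq (g⁻¹ * v * g) (by simpa using (inferInstance : V.Normal).conj_mem v hv g⁻¹)
    have e1 : b * ⁅b, v⁆ = g * (a * ⁅a, g⁻¹ * v * g⁆) * g⁻¹ := by rw [hb]; simp only [commutatorElement_def]; group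
    have e2 : ⁅b, v⁆ * b = g * (⁅a, g⁻¹ * v * g⁆ * a) * g⁻¹ := by rw [hb]; simp only [commutatorElement_def]; group
    rw [e1, e2, h0]
  have hevn : ¬ Odd (Nat.card (Y.map q)) := by
    intro hodd
    obtain ⟨Y0, -, hmap, hY0⟩ := exists_odd_supplement q Y hodd
    have key : ∀ c ∈ Y, (∀ v ∈ V, c * ⁅c, v⁆ = ⁅c, v⁆ * c) →
        ∀ h : q c ∈ Y.map q, (⟨q c, h⟩ : Y.map q) ∈ Cfsg.pCore p (Y.map q) := by
      intro c hc hcq
      obtain ⟨c0, hc0, hce⟩ : q c ∈ Y0.map q := hmap.ge ⟨c, hc, rfl⟩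
      have hcc : c0⁻¹ * c ∈ C := QuotientGroup.eq.1 hce
      have hq0 : ∀ v ∈ V, c0 * ⁅c0, v⁆ = ⁅c0, v⁆ * c0 := by
        have hsame : ∀ v ∈ V, c0 * v * c0⁻¹ = c * v * c⁻¹ := by
          intro v hv
          have h1 := Subgroup.mem_centralizer_iff.1 hcc v hv
          calc c0 * v * c0⁻¹ = c0 * (v * (c0⁻¹ * c)) * c⁻¹ := by group
            _ = c0 * ((c0⁻¹ * c) * v) * c⁻¹ := by rw [h1]
            _ = c * v * c⁻¹ := by group
        intro v hv
        have e0 : ⁅c0, v⁆ = ⁅c, v⁆ := by rw [commutatorElement_def, commutatorElement_def, hsame v hv]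
        have hd : ⁅c, v⁆ ∈ V := by
          rw [commutatorElement_def]
          exact V.mul_mem ((inferInstance : V.Normal).conj_mem v hv c) (V.inv_mem hv)
        have h2 := hsame _ hd
        rw [hcq v hv, mul_inv_cancel_right, mul_inv_eq_iff_eq_mul] at h2
        rwa [e0]
      have h3 := mem_pCore_of_odd hp2 hV hY0 hc0 hq0
      intro h
      have h4 : (⟨QuotientGroup.mk c0, c0, hc0, rfl⟩ : Y0.map q) ∈ Cfsg.pCore p (Y0.map q) := h3
      have h5 := PCore.map_pCore_equiv (p := p) (MulEquiv.subgroupCongr hmap)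
      rw [← h5]
      exact ⟨_, h4, Subtype.ext hce⟩
    apply hg'
    rw [← hYmap]
    have htop : Cfsg.pCore p (Y.map q) = ⊤ := by
      rw [eq_top_iff]
      rintro ⟨y, hy⟩ -
      have hle : Y ≤ (((Cfsg.pCore p (Y.map q)).map (Y.map q).subtype).comap q) := (Subgroup.closure_le _).2 (by
        rintro c (rfl | rfl)
        · exact ⟨_, key c (Subgroup.subset_closure (Or.inl rfl)) hq ⟨c, Subgroup.subset_closure (Or.inl rfl), rfl⟩, rfl⟩
        · exact ⟨_, key b (Subgroup.subset_closure (Or.inr rfl)) hqb ⟨b, Subgroup.subset_closure (Or.inr rfl), rfl⟩, rfl⟩)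
      obtain ⟨y', hy', rfl⟩ := hy
      obtain ⟨z, hz, hze⟩ := hle hy'
      have e : z = ⟨q y', ⟨y', hy', rfl⟩⟩ := Subtype.ext hze; rw [← e]; exact hz
    intro x
    obtain ⟨k, hk⟩ := PCore.isPGroup_pCore p (Y.map q) ⟨x, htop.ge (Subgroup.mem_top x)⟩
    exact ⟨k, congrArg Subtype.val hk⟩
  rw [Nat.not_odd_iff_even, even_iff_two_dvd] at hevn
  obtain ⟨⟨z, y, hy, rfl⟩, hz⟩ := exists_prime_orderOf_dvd_card' 2 hevn
  rw [← Subgroup.orderOf_coe] at hz
  simp only at hz
  obtain ⟨k, m, hm, hkm⟩ := (orderOf y).exists_eq_pow_mul_and_not_dvd (orderOf_pos y).ne' 2 (by norm_num)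
  have hqm : q (y ^ m) = q y := by
    rw [map_pow, ← pow_mod_orderOf, hz, Nat.mod_two_ne_zero.1 (fun h => hm (Nat.dvd_of_mod_eq_zero h)), pow_one]
  refine ⟨y ^ m, Subgroup.mem_sup_left (show q (y ^ m) ∈ H2 from Subgroup.mem_centralizer_singleton_iff.2 ?_),
    fun h => ?_, k, ?_⟩
  · rw [hqm, ← map_mul, ← map_mul]
    apply QuotientGroup.eq.2
    rw [hC, ← ZJ.conjEnd_eq_iff, map_mul, map_mul]
    refine (commute_of_quadratic_pair ?_ (ZJ.conjEnd V) (conjEnd_quadratic hq) (conjEnd_quadratic hqb) hy ?_).eq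
    · intro r hr
      refine DFunLike.ext _ _ fun v => Additive.toMul.injective (Subtype.ext ?_)
      have h1 := congrArg (fun w : Additive ↥V => (w.toMul : G)) (DFunLike.congr_fun hr v)
      change ((r v).toMul : G) * (r v).toMul = 1 at h1
      show ((r v).toMul : G) = 1
      have h2 : ((r v).toMul : G) ^ p = 1 := hV.2 _ (r v).toMul.2
      obtain ⟨j, hj⟩ := hp.out.odd_of_ne_two hp2
      rwa [hj, pow_succ, pow_mul, pow_two, h1, one_pow, one_mul] at h2
    · have hy2 : q (y * y) = 1 := by rw [map_mul, ← pow_two, ← hz, pow_orderOf_eq_one]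
      rw [← map_mul, ← map_one (ZJ.conjEnd V), eq_comm, ZJ.conjEnd_eq_iff, inv_one, one_mul]
      exact (QuotientGroup.eq_one_iff _).1 hy2
  · rw [← hqm, h, map_one, orderOf_one] at hz
    omega
  · rw [orderOf_pow, hkm, Nat.gcd_eq_right (dvd_mul_left _ _), Nat.mul_div_cancel _ (Nat.pos_of_ne_zero fun h => hm (by rw [h]; exact dvd_zero 2))]

/-- The witness for a quadratic action on a normal `p`-subgroup. -/
theorem exists_subgroup_of_quadratic (hp2 : p ≠ 2) {B : Subgroup G} [B.Normal] (hB : IsPGroup p B) {a : G}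
    (hq : ⁅⁅B, Subgroup.zpowers a⁆, Subgroup.zpowers a⁆ = ⊥)
    (hne : (QuotientGroup.mk a : G ⧸ Subgroup.centralizer (B : Set G)) ∉
      Cfsg.pCore p (G ⧸ Subgroup.centralizer (B : Set G))) :
    ∃ H : Subgroup G, H ≠ ⊤ ∧ Cfsg.pCore p G ≤ H ∧ (∀ x, x * a = a * x → x ∈ H) ∧
      ∃ t ∈ H, t ≠ 1 ∧ ∃ k : ℕ, orderOf t = 2 ^ k := by
  set Φ := (frattini B).map B.subtype with hΦ
  haveI : Φ.Normal := inferInstance
  set π := QuotientGroup.mk' Φ with hπ
  set V := B.map π with hVdef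
  haveI hVn : V.Normal := (inferInstance : B.Normal).map _ (QuotientGroup.mk'_surjective _)
  have hV : Cfsg.IsElementaryAbelian p V := by
    refine ⟨⟨⟨?_⟩⟩, ?_⟩
    · rintro ⟨_, x, hx, rfl⟩ ⟨_, y, hy, rfl⟩
      refine Subtype.ext ?_
      show π x * π y = π y * π x
      rw [← map_mul, ← map_mul]
      refine QuotientGroup.eq.2 ⟨(⟨x, hx⟩ * ⟨y, hy⟩)⁻¹ * (⟨y, hy⟩ * ⟨x, hx⟩), PGroup.commutator_le_frattini hB ?_, rfl⟩
      have e : ((⟨x, hx⟩ : B) * ⟨y, hy⟩)⁻¹ * (⟨y, hy⟩ * ⟨x, hx⟩) = ⁅(⟨y, hy⟩ : B)⁻¹, (⟨x, hx⟩ : B)⁻¹⁆ := by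
        simp only [commutatorElement_def]; group
      rw [e, commutator_def]
      exact Subgroup.commutator_mem_commutator (Subgroup.mem_top _) (Subgroup.mem_top _)
    · rintro _ ⟨x, hx, rfl⟩
      rw [← map_pow]
      exact (QuotientGroup.eq_one_iff _).2 ⟨⟨x, hx⟩ ^ p, PGroup.pow_mem_frattini hB _, rfl⟩
  have hq' : ∀ v ∈ V, π a * ⁅π a, v⁆ = ⁅π a, v⁆ * π a := by
    rintro _ ⟨v, hv, rfl⟩
    have h1 : ⁅⁅v, a⁆, a⁆ = 1 := Subgroup.mem_bot.1 (hq.le (Subgroup.commutator_mem_commutator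
      (Subgroup.commutator_mem_commutator hv (Subgroup.mem_zpowers a)) (Subgroup.mem_zpowers a)))
    have h2 : Commute ⁅v, a⁆ a := commutatorElement_eq_one_iff_mul_comm.1 h1
    rw [← map_commutatorElement, ← map_mul, ← map_mul, ← commutatorElement_inv v a, h2.inv_left.eq]
  haveI hCn : (Subgroup.centralizer (V : Set (G ⧸ Φ))).Normal := Subgroup.normal_centralizer
  have hne' : (QuotientGroup.mk (π a) : (G ⧸ Φ) ⧸ Subgroup.centralizer (V : Set (G ⧸ Φ))) ∉
      Cfsg.pCore p ((G ⧸ Φ) ⧸ Subgroup.centralizer (V : Set (G ⧸ Φ))) := by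
    intro hmem
    apply hne
    haveI hBn : (Subgroup.centralizer (B : Set G)).Normal := Subgroup.normal_centralizer
    set q1 := (QuotientGroup.mk' (Subgroup.centralizer (V : Set (G ⧸ Φ)))).comp π
    set q0 := QuotientGroup.mk' (Subgroup.centralizer (B : Set G))
    set M := (Cfsg.pCore p ((G ⧸ Φ) ⧸ Subgroup.centralizer (V : Set (G ⧸ Φ)))).comap q1
    have hMn : M.Normal := (Cfsg.pCore_normal p _).comap _
    have hMp : IsPGroup p (M.map q0) := by
      rintro ⟨_, x, hx, rfl⟩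
      obtain ⟨j, hj⟩ := PCore.isPGroup_pCore p _ ⟨q1 x, hx⟩
      have hj' : q1 (x ^ p ^ j) = 1 := (map_pow q1 x _).trans (congrArg Subtype.val hj)
      obtain ⟨y₁, y₂, hy, hcom, ⟨i, hi⟩, hy₂, -, hy₂z⟩ := Transfer.exists_pPart_mul (p := p) (x ^ p ^ j)
      have hcop : (Nat.card (Subgroup.zpowers y₂)).Coprime (Nat.card (frattini B)) := by
        obtain ⟨r, hr⟩ := IsPGroup.iff_card.1 (hB.to_subgroup (frattini B))
        rw [Nat.card_zpowers, hr]; exact hy₂.pow_right r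
      have htriv : ∀ c ∈ Subgroup.zpowers y₂, ∀ v ∈ B, c * v * c⁻¹ * v⁻¹ ∈ Φ := by
        intro c hc v hv
        have hc1 : q1 c = 1 := by
          have hle : Subgroup.zpowers (x ^ p ^ j) ≤ q1.ker := Subgroup.zpowers_le.2 hj'
          exact hle (Subgroup.zpowers_le.2 hy₂z hc)
        have hc2 := Subgroup.mem_centralizer_iff.1 ((QuotientGroup.eq_one_iff _).1 hc1) (π v) ⟨v, hv, rfl⟩
        refine (QuotientGroup.eq_one_iff _).1 (show π (c * v * c⁻¹ * v⁻¹) = 1 from ?_)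
        rw [map_mul, map_mul, map_mul, map_inv, map_inv, ← hc2, mul_inv_cancel_right, mul_inv_cancel]
      have hy₂c := CoprimeAction.le_centralizer_of_frattini hcop htriv (Subgroup.mem_zpowers y₂)
      refine ⟨j + i, Subtype.ext ?_⟩
      rw [Subgroup.coe_pow, Subgroup.coe_one]
      show q0 x ^ p ^ (j + i) = 1
      rw [← map_pow, pow_add, pow_mul, hy, hcom.mul_pow, ← hi, pow_orderOf_eq_one, one_mul]
      exact (QuotientGroup.eq_one_iff _).2 (Subgroup.pow_mem _ hy₂c _)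
    exact PCore.le_pCore (hMn.map q0 (QuotientGroup.mk'_surjective _)) hMp ⟨a, hmem, rfl⟩
  obtain ⟨H, hH, hHp, hHa, t, htH, ht1, k, hk⟩ :=
    exists_subgroup_of_not_mem_pCore hp2 hV hq' _ rfl hne'
  refine ⟨H.comap π, fun h => hH ?_, fun x hx => hHp (PCore.map_pCore_le π (QuotientGroup.mk'_surjective _) ⟨x, hx, rfl⟩),
    fun x hx => hHa _ (by rw [← map_mul, ← map_mul, hx]), ?_⟩
  · rw [eq_top_iff]
    intro y _
    obtain ⟨y, rfl⟩ := QuotientGroup.mk'_surjective Φ y
    exact h.ge (Subgroup.mem_top y)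
  obtain ⟨t0, rfl⟩ := QuotientGroup.mk'_surjective Φ t
  obtain ⟨i, m, hm, him⟩ := (orderOf t0).exists_eq_pow_mul_and_not_dvd (orderOf_pos t0).ne' 2 (by norm_num)
  refine ⟨t0 ^ m, show π (t0 ^ m) ∈ H by rw [map_pow]; exact H.pow_mem htH m, fun h => ht1 ?_, i, ?_⟩
  · have h1 : orderOf (π t0) ∣ m := orderOf_dvd_of_pow_eq_one (by rw [← map_pow, h, map_one])
    rw [← orderOf_eq_one_iff]
    exact Nat.eq_one_of_dvd_coprimes ((Nat.prime_two.coprime_iff_not_dvd.2 hm).pow_left k) (dvd_of_eq hk) h1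
  · rw [orderOf_pow, him, Nat.gcd_eq_right (dvd_mul_left _ _), Nat.mul_div_cancel _ (Nat.pos_of_ne_zero fun h => hm (by rw [h]; exact dvd_zero 2))]

end CfsgLib.RealZJ
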